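import Mathlib

/-!
# Finite arithmetic for non-solvable regular groups
-/

set_option autoImplicit false

namespace Cfsg.Agent.Lib.Zassen.Checks3

set_option maxRecDepth 100000 in
theorem insol_numeric : ∀ Q ∈ Finset.range 240, ∀ t ∈ ({1, 2} : Finset ℕ),
    ∀ m ∈ Finset.range 240, Q * Q - 1 = 120 * t * m → 2 ≤ Q → m ∣ Q - 1 → Nat.Coprime m 30 →
      (Q = 11 ∧ t = 1 ∧ m = 1) ∨ (Q = 29 ∧ t = 1 ∧ m = 7) ∨ (Q = 59 ∧ t = 1 ∧ m = 29) ∨ Q = 119 := by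
  decide +kernel

end Cfsg.Agent.Lib.Zassen.Checks3
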