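import Cfsg.Agent.Lib.Zassen.RegDim
import Cfsg.Agent.Lib.Zassen.Checks3
import Cfsg.Agent.Lib.Zassen.CtxOf
import Cfsg.Agent.S3378

/-!
# Non-solvable groups regular on the non-zero vectors
-/

set_option autoImplicit false
set_option linter.unusedSectionVars false
set_option linter.style.haveILetI false

namespace Cfsg.Agent.Lib.Zassen.Insol

open Subgroup
open Cfsg.Agent.Lib.Zassen.Basic Cfsg.Agent.Lib.Zassen.Frames Cfsg.Agent.Lib.Zassen.Reduce
open Cfsg.Agent.Lib.Zassen.Semi Cfsg.Agent.Lib.Zassen.Unique Cfsg.Agent.Lib.Zassen.Struct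
open Cfsg.Agent.Lib.Zassen.CtxOf Cfsg.Agent.Lib.Zassen.RegS Cfsg.Agent.Lib.Zassen.RegDim
open Cfsg.Agent.Lib.PermMod.RegLin Cfsg.Agent.Lib.PermMod.MinNormal

/-- Internal direct products. -/
theorem prod_iso {G : Type*} [Group G] (S M : Subgroup G) (hinf : S ⊓ M = ⊥)
    (hc : ∀ s ∈ S, ∀ x ∈ M, s * x = x * s) : Nonempty ((S × M) ≃* ↥(S ⊔ M)) := by
  have hcc : ∀ (s : S) (x : M), Commute (S.subtype s) (M.subtype x) := fun s x => hc s s.2 x x.2
  let f : S × M →* G := MonoidHom.noncommCoprod S.subtype M.subtype hcc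
  have hf : Function.Injective f := by
    rw [injective_iff_map_eq_one]
    rintro ⟨s, x⟩ h
    have h1 : (s : G) * x = 1 := h
    have h2 : (s : G) = (x : G)⁻¹ := eq_inv_of_mul_eq_one_left h1
    have h3 : (s : G) ∈ S ⊓ M := ⟨s.2, h2 ▸ M.inv_mem x.2⟩
    rw [hinf, mem_bot] at h3
    have h4 : (x : G) = 1 := by
      rw [h3, one_mul] at h1
      exact h1
    apply Prod.ext
    · exact Subtype.ext h3
    · exact Subtype.ext h4
  have hr : f.range = S ⊔ M := by
    have := MonoidHom.noncommCoprod_range S.subtype M.subtype hcc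
    rw [range_subtype, range_subtype] at this
    exact this
  exact ⟨(MonoidHom.ofInjective hf).trans (MulEquiv.subgroupCongr hr)⟩

theorem pp_ne_119 {q m : ℕ} (hq : q.Prime) : q ^ m ≠ 119 := by
  intro h
  have h7 : 7 ∣ q ^ m := by rw [h]; norm_num
  have h17 : 17 ∣ q ^ m := by rw [h]; norm_num
  have e7 := (Nat.prime_dvd_prime_iff_eq (by norm_num) hq).mp ((by norm_num : Nat.Prime 7).dvd_of_dvd_pow h7)
  have e17 := (Nat.prime_dvd_prime_iff_eq (by norm_num) hq).mp ((by norm_num : Nat.Prime 17).dvd_of_dvd_pow h17)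
  omega

theorem mulEquiv_zmod_of_card {G : Type*} [Group G] {n : ℕ} (hn : n.Prime) (h : Nat.card G = n) :
    Nonempty (G ≃* Multiplicative (ZMod n)) := by
  subst h
  haveI : Fact (Nat.card G).Prime := ⟨hn⟩
  haveI : Finite G := Nat.finite_of_card_ne_zero hn.ne_zero
  haveI := isCyclic_of_prime_card (α := G) rfl
  exact ⟨(zmodCyclicMulEquiv inferInstance).symm⟩

/-- The arithmetic. -/
theorem bound_numeric {Q t m : ℕ} (hQ : 2 ≤ Q) (ht : t = 1 ∨ t = 2) (hm : m ≠ 0)
    (hcard : Q * Q - 1 = 120 * t * m) (hdvd : m ∣ Q - 1) (hc : Nat.Coprime m 30) :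
    (Q = 11 ∧ t = 1 ∧ m = 1) ∨ (Q = 29 ∧ t = 1 ∧ m = 7) ∨ (Q = 59 ∧ t = 1 ∧ m = 29) ∨ Q = 119 := by
  obtain ⟨c, hcm⟩ := hdvd
  have hm0 : 0 < m := Nat.pos_of_ne_zero hm
  have h1 : Q * Q - 1 = (Q - 1) * (Q + 1) := by
    obtain ⟨r, hr⟩ : ∃ r, Q = r + 1 := ⟨Q - 1, by omega⟩
    rw [hr]
    simp only [Nat.add_sub_cancel]
    have : (r + 1) * (r + 1) = r * (r + 1 + 1) + 1 := by ring
    omega
  have hc1 : c * (Q + 1) = 120 * t := by
    have h2 : m * (c * (Q + 1)) = m * (120 * t) := by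
      calc m * (c * (Q + 1)) = (m * c) * (Q + 1) := by ring
        _ = (Q - 1) * (Q + 1) := by rw [hcm]
        _ = 120 * t * m := by rw [← h1, hcard]
        _ = m * (120 * t) := by ring
    exact Nat.eq_of_mul_eq_mul_left hm0 h2
  have ht2 : 0 < 120 * t := by
    rcases ht with rfl | rfl <;> norm_num
  have hc0 : 0 < c := by
    rcases Nat.eq_zero_or_pos c with h | h
    · rw [h, zero_mul] at hc1
      omega
    · exact h
  have hQ240 : Q < 240 := by
    have h3 : Q + 1 ≤ c * (Q + 1) := Nat.le_mul_of_pos_left _ hc0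
    rcases ht with rfl | rfl <;> omega
  have hm240 : m < 240 := by
    have h3 : m ≤ Q - 1 := by
      rw [hcm]
      exact Nat.le_mul_of_pos_right _ (by
        rcases Nat.eq_zero_or_pos c with h | h
        · omega
        · exact h)
    omega
  have htmem : t ∈ ({1, 2} : Finset ℕ) := by
    rcases ht with rfl | rfl <;> simp
  exact Cfsg.Agent.Lib.Zassen.Checks3.insol_numeric Q (Finset.mem_range.mpr hQ240) t htmem m
    (Finset.mem_range.mpr hm240) hcard hQ ⟨c, hcm⟩ hc

variable {p : ℕ} [hp : Fact p.Prime] {V : Type*} [AddCommGroup V] [Module (ZMod p) V] [Finite V]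
  {H : Subgroup (V ≃ₗ[ZMod p] V)}

/-- The insoluble regular groups. -/
theorem insol_main (hreg : Reg H) (hsolv : ¬ Group.IsSolvable H) :
    (Nat.card V = 121 ∧ Nonempty (H ≃* SL25)) ∨
    (Nat.card V = 841 ∧ Nonempty (H ≃* SL25 × Multiplicative (ZMod 7))) ∨
    (Nat.card V = 3481 ∧ Nonempty (H ≃* SL25 × Multiplicative (ZMod 29))) := by
  haveI := finite_H H
  haveI : Module.Finite (ZMod p) V := Module.Finite.of_finite
  haveI : Nontrivial V := by
    by_contra hV
    rw [not_nontrivial_iff_subsingleton] at hV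
    apply hsolv
    haveI : Subsingleton H :=
      ⟨fun a b => Subtype.ext (LinearEquiv.ext (fun v => Subsingleton.elim _ _))⟩
    infer_instance
  haveI : Finite (Multiplicative V) := inferInstanceAs (Finite V)
  haveI : Nontrivial (Multiplicative V) := inferInstanceAs (Nontrivial V)
  have h2 : 2 ∣ Nat.card H := by
    by_contra h2
    haveI := isZGroup_of_odd (multAct H) (fun g hg k hk => by
      by_contra h
      exact hg (semireg hreg (v := Multiplicative.toAdd k) h hk)) h2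
    exact hsolv inferInstance
  haveI : Fact (Nat.Prime 2) := ⟨Nat.prime_two⟩
  obtain ⟨z, hz⟩ := exists_prime_orderOf_dvd_card' (G := H) 2 h2
  have hz2 : z ^ 2 = 1 := by rw [← hz]; exact pow_orderOf_eq_one z
  have hz1 : z ≠ 1 := by
    rintro rfl
    rw [orderOf_one] at hz
    omega
  apply linear_ctx (F := ZMod p) (repH H) (repH_fpf hreg) hz2 hz1
  intro E V' _ _ _ _ _ _ _ ρ C
  obtain ⟨G₀, hG₀n, hidx, S, M, hSM, hinf, hcomm, ⟨e⟩, hMZ, hMc, hSn, hzS⟩ := ctx_struct C hsolv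
  let ψ : SL25 →* H := S.subtype.comp e.symm.toMonoidHom
  have hψ : Function.Injective ψ := S.subtype_injective.comp e.symm.injective
  have hq := qpair_sl.map ψ hψ
  obtain ⟨U, hU, hinv⟩ := half_data hreg hq
  have hMinv : Inv M U := fun g hg v hv =>
    hinv g (hcomm _ (e.symm slA).2 g hg).symm (hcomm _ (e.symm slX).2 g hg).symm v hv
  have hdvd : Nat.card M ∣ p ^ Module.finrank (ZMod p) U - 1 := card_dvd hreg M hMinv
  have hU0 := finrank_U_ne_zero hU
  have hpr : p.Prime := Fact.out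
  have hQ2 : 2 ≤ p ^ Module.finrank (ZMod p) U :=
    hpr.two_le.trans (Nat.le_self_pow hU0 p)
  have hVc : Nat.card V = p ^ Module.finrank (ZMod p) U * p ^ Module.finrank (ZMod p) U := by
    rw [Module.natCard_eq_pow_finrank (K := ZMod p), Nat.card_zmod, hU, pow_add]
  have hH : Nat.card H = p ^ Module.finrank (ZMod p) U * p ^ Module.finrank (ZMod p) U - 1 := by
    rw [card_H hreg, hU, pow_add]
  have hS : Nat.card S = 120 := by
    rw [Nat.card_congr e.toEquiv]
    exact Cfsg.Agent.S3378.card_sl25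
  obtain ⟨i⟩ := prod_iso S M hinf hcomm
  have hG₀ : Nat.card G₀ = 120 * Nat.card M := by
    rw [← hSM, ← Nat.card_congr i.toEquiv, Nat.card_prod, hS]
  have hcard : p ^ Module.finrank (ZMod p) U * p ^ Module.finrank (ZMod p) U - 1 =
      120 * G₀.index * Nat.card M := by
    rw [← hH, ← Subgroup.card_mul_index G₀, hG₀]
    ring
  have hm0 : Nat.card M ≠ 0 := Nat.card_pos.ne'
  have hnum := bound_numeric hQ2 hidx hm0 hcard hdvd hMc
  have hiso : G₀.index = 1 → Nonempty (H ≃* SL25 × M) := by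
    intro h1
    have htop : G₀ = ⊤ := Subgroup.index_eq_one.mp h1
    have h3 : S ⊔ M = ⊤ := hSM.trans htop
    exact ⟨((i.trans ((MulEquiv.subgroupCongr h3).trans Subgroup.topEquiv)).symm).trans
      (MulEquiv.prodCongr e (MulEquiv.refl M))⟩
  rcases hnum with ⟨hQ, ht, hm⟩ | ⟨hQ, ht, hm⟩ | ⟨hQ, ht, hm⟩ | hQ
  · left
    refine ⟨by rw [hVc, hQ], ?_⟩
    obtain ⟨j⟩ := hiso ht
    haveI : Subsingleton M := (Nat.card_eq_one_iff_unique.mp hm).1
    haveI : Unique M := ⟨⟨1⟩, fun a => Subsingleton.elim _ _⟩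
    exact ⟨j.trans MulEquiv.prodUnique⟩
  · right; left
    refine ⟨by rw [hVc, hQ], ?_⟩
    obtain ⟨j⟩ := hiso ht
    obtain ⟨k⟩ := mulEquiv_zmod_of_card (by norm_num) hm
    exact ⟨j.trans (MulEquiv.prodCongr (MulEquiv.refl SL25) k)⟩
  · right; right
    refine ⟨by rw [hVc, hQ], ?_⟩
    obtain ⟨j⟩ := hiso ht
    obtain ⟨k⟩ := mulEquiv_zmod_of_card (by norm_num) hm
    exact ⟨j.trans (MulEquiv.prodCongr (MulEquiv.refl SL25) k)⟩
  · exact absurd hQ (pp_ne_119 hpr)

end Cfsg.Agent.Lib.Zassen.Insol
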