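import Cfsg.Agent.Lib.Zassen.CtxOf
import Cfsg.Agent.Lib.PermMod.MinNormal

/-!
# Regular linear groups and Zassenhaus's theorem
-/

set_option autoImplicit false
set_option linter.unusedSectionVars false
set_option linter.style.haveILetI false
set_option maxRecDepth 100000

namespace Cfsg.Agent.Lib.Zassen.RegS

open Subgroup
open Cfsg.Agent.Lib.Zassen.Basic Cfsg.Agent.Lib.Zassen.Frames Cfsg.Agent.Lib.Zassen.Reduce
open Cfsg.Agent.Lib.Zassen.Semi Cfsg.Agent.Lib.Zassen.Unique Cfsg.Agent.Lib.Zassen.Struct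
open Cfsg.Agent.Lib.Zassen.CtxOf
open Cfsg.Agent.Lib.PermMod.RegLin Cfsg.Agent.Lib.PermMod.MinNormal

abbrev SL25 := Matrix.SpecialLinearGroup (Fin 2) (ZMod 5)

/-- An element of order four in `SL(2,5)`. -/
def slA : SL25 := ⟨!![2, 0; 0, 3], by decide⟩

/-- An element of order four in `SL(2,5)` inverting `slA`. -/
def slX : SL25 := ⟨!![0, 1; 4, 0], by decide⟩

theorem slA2 : slA ^ 2 ≠ 1 := by decide +kernel
theorem slA4 : slA ^ 4 = 1 := by decide +kernel
theorem slX2 : slX ^ 2 = slA ^ 2 := by decide +kernel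
theorem slConj : slX * slA * slX⁻¹ = slA⁻¹ := by decide +kernel

theorem q8A2 : (QuaternionGroup.a 1 : QuaternionGroup 2) ^ 2 ≠ 1 := by decide
theorem q8A4 : (QuaternionGroup.a 1 : QuaternionGroup 2) ^ 4 = 1 := by decide
theorem q8X2 : (QuaternionGroup.xa 0 : QuaternionGroup 2) ^ 2 = (QuaternionGroup.a 1) ^ 2 := by decide
theorem q8Conj : (QuaternionGroup.xa 0 : QuaternionGroup 2) * (QuaternionGroup.a 1) *
    (QuaternionGroup.xa 0)⁻¹ = (QuaternionGroup.a 1)⁻¹ := by decide

/-- A quaternion pair in a group. -/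
structure QPair {G : Type*} [Group G] (a x : G) : Prop where
  a2 : a ^ 2 ≠ 1
  a4 : a ^ 4 = 1
  x2 : x ^ 2 = a ^ 2
  conj : x * a * x⁻¹ = a⁻¹

theorem QPair.map {G G' : Type*} [Group G] [Group G'] {a x : G} (h : QPair a x) (f : G →* G')
    (hf : Function.Injective f) : QPair (f a) (f x) where
  a2 := by
    intro e
    apply h.a2
    apply hf
    rw [map_pow, map_one]
    exact e
  a4 := by rw [← map_pow, h.a4, map_one]
  x2 := by rw [← map_pow, h.x2, map_pow]
  conj := by rw [← map_inv, ← map_mul, ← map_mul, h.conj, map_inv]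

theorem qpair_sl : QPair slA slX := ⟨slA2, slA4, slX2, slConj⟩

theorem qpair_q8 : QPair (QuaternionGroup.a 1 : QuaternionGroup 2) (QuaternionGroup.xa 0) :=
  ⟨q8A2, q8A4, q8X2, q8Conj⟩

theorem QPair.ncomm {G : Type*} [Group G] {a x : G} (h : QPair a x) : a * x ≠ x * a := by
  intro e
  apply h.a2
  have h1 : x * a * x⁻¹ = a := by rw [← e]; group
  have h2 := h.conj
  rw [h1] at h2
  rw [pow_two]
  nth_rewrite 1 [h2]
  group

variable {p : ℕ} [hp : Fact p.Prime] {V : Type*} [AddCommGroup V] [Module (ZMod p) V] [Finite V]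
  {H : Subgroup (V ≃ₗ[ZMod p] V)}

/-- The action on the additive group of `V`, written multiplicatively. -/
def multAct (H : Subgroup (V ≃ₗ[ZMod p] V)) : H →* MulAut (Multiplicative V) where
  toFun g := AddEquiv.toMultiplicative (g : V ≃ₗ[ZMod p] V).toAddEquiv
  map_one' := by
    ext x
    rfl
  map_mul' := fun g h => by
    ext x
    rfl

theorem multAct_fpf (hreg : Reg H) (N : Subgroup H) (g : N) (hg : g ≠ 1) (k : Multiplicative V)
    (hk : multAct H g k = k) : k = 1 := by
  by_contra h
  have hv : Multiplicative.toAdd k ≠ 0 := h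
  exact hg (Subtype.ext (semireg hreg hv hk))

/-- The linear representation of `H`. -/
def repH (H : Subgroup (V ≃ₗ[ZMod p] V)) : H →* Module.End (ZMod p) V where
  toFun g := ((g : V ≃ₗ[ZMod p] V) : V →ₗ[ZMod p] V)
  map_one' := rfl
  map_mul' := fun _ _ => rfl

theorem repH_fpf (hreg : Reg H) : IsFPF (repH H) := by
  intro g hg v hv
  by_contra h
  exact hg (semireg hreg h hv)

/-- Zassenhaus's theorem for regular groups. -/
theorem perfect_of_reg [Nontrivial V] (hreg : Reg H) (N : Subgroup H) (hN : ⁅N, N⁆ = N) (hna : N ≠ ⊥) :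
    Nonempty (N ≃* SL25) := by
  haveI := finite_H H
  haveI : Nontrivial N := (Subgroup.nontrivial_iff_ne_bot N).mpr hna
  haveI : Finite (Multiplicative V) := inferInstanceAs (Finite V)
  haveI : Nontrivial (Multiplicative V) := inferInstanceAs (Nontrivial V)
  have hperf : commutator N = ⊤ := by
    apply Subgroup.map_injective N.subtype_injective
    rw [map_subtype_commutator, hN, ← MonoidHom.range_eq_map, Subgroup.range_subtype]
  exact perfect_core (K := Multiplicative V) ((multAct H).comp N.subtype)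
    (fun g hg k hk => multAct_fpf hreg N g hg k hk) hperf

/-- The dichotomy for minimal non-abelian normal subgroups. -/
theorem quat_or_sl (hreg : Reg H) {A N : Subgroup H} (hAn : A.Normal)
    (hAc : IsMulCommutative A)
    (hAmax : ∀ B : Subgroup H, B.Normal → IsMulCommutative B → A ≤ B → B = A)
    (hNn : N.Normal) (hNle : N ≤ centralizer (A : Set H)) (hNna : ¬ IsMulCommutative N)
    (hNmin : ∀ M : Subgroup H, M.Normal → M ≤ N → ¬ IsMulCommutative M → M = N) :
    Nonempty (N ≃* QuaternionGroup 2) ∨ Nonempty (N ≃* SL25) := by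
  haveI := nontrivial_of_not_comm hNna
  haveI := hNn
  by_cases hc : IsMulCommutative (⁅N, N⁆ : Subgroup H)
  · left
    obtain ⟨e⟩ := quat_of_commutator_comm hreg hAn hAc hAmax hNn hNle hNna hNmin hc
    exact ⟨e.symm⟩
  · right
    have h1 : ⁅N, N⁆ = N := hNmin _ inferInstance (Subgroup.commutator_le_left N N) hc
    refine perfect_of_reg hreg N h1 ?_
    rintro rfl
    apply hNna
    infer_instance

end Cfsg.Agent.Lib.Zassen.RegS
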