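import Cfsg.Agent.Lib.Zassen.RegS

/-!
# Dimension bounds for regular linear groups containing a quaternion pair
-/

set_option autoImplicit false
set_option linter.unusedSectionVars false
set_option linter.style.haveILetI false

namespace Cfsg.Agent.Lib.Zassen.RegDim

open Subgroup
open Cfsg.Agent.Lib.Zassen.Basic Cfsg.Agent.Lib.Zassen.Frames Cfsg.Agent.Lib.Zassen.Reduce
open Cfsg.Agent.Lib.Zassen.Semi Cfsg.Agent.Lib.Zassen.Unique Cfsg.Agent.Lib.Zassen.Struct
open Cfsg.Agent.Lib.Zassen.CtxOf Cfsg.Agent.Lib.Zassen.RegS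
open Cfsg.Agent.Lib.PermMod.RegLin Cfsg.Agent.Lib.PermMod.MinNormal

variable {p : ℕ} [hp : Fact p.Prime] {V : Type*} [AddCommGroup V] [Module (ZMod p) V] [Finite V]
  {H : Subgroup (V ≃ₗ[ZMod p] V)}

/-- The subspace attached to a quaternion pair. -/
theorem half_data [Nontrivial V] (hreg : Reg H) {a x : H} (h : QPair a x) :
    ∃ U : Submodule (ZMod p) V, Module.finrank (ZMod p) V = Module.finrank (ZMod p) U +
        Module.finrank (ZMod p) U ∧
      ∀ g : H, Commute g a → Commute g x → ∀ v ∈ U, (g : V ≃ₗ[ZMod p] V) v ∈ U := by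
  obtain ⟨T, hT, hTg⟩ := exists_half hreg h.a2 h.a4 h.x2 h.conj
  haveI : Module.Finite (ZMod p) V := Module.Finite.of_finite
  refine ⟨LinearMap.ker T, ?_, ?_⟩
  · have := LinearMap.finrank_range_add_finrank_ker T
    rw [hT] at this
    exact this.symm
  · intro g h1 h2 v hv
    rw [LinearMap.mem_ker] at hv ⊢
    rw [hTg g h1 h2, hv, map_zero]

/-- The arithmetic consequence of a quaternion pair. -/
theorem index_bound [Nontrivial V] (hreg : Reg H) {U : Submodule (ZMod p) V}
    (hU : Module.finrank (ZMod p) V = Module.finrank (ZMod p) U + Module.finrank (ZMod p) U)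
    (C : Subgroup H) (hC : ∀ g ∈ C, ∀ v ∈ U, (g : V ≃ₗ[ZMod p] V) v ∈ U) :
    p ^ Module.finrank (ZMod p) U + 1 ∣ C.index := by
  have hdvd : Nat.card C ∣ p ^ Module.finrank (ZMod p) U - 1 := card_dvd hreg C hC
  haveI := finite_H H
  have hcard : Nat.card C * C.index = p ^ Module.finrank (ZMod p) V - 1 := by
    rw [Subgroup.card_mul_index, card_H hreg]
  set q := p ^ Module.finrank (ZMod p) U with hq
  have hpn : p ^ Module.finrank (ZMod p) V = q * q := by
    rw [hU, pow_add]
  obtain ⟨e, he⟩ := hdvd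
  have hC0 : 0 < Nat.card C := Nat.card_pos
  have hq1 : 1 ≤ q := Nat.one_le_pow _ _ (Fact.out : p.Prime).pos
  have h1 : q * q - 1 = (q - 1) * (q + 1) := by
    obtain ⟨r, hr⟩ : ∃ r, q = r + 1 := ⟨q - 1, by omega⟩
    rw [hr]
    simp only [Nat.add_sub_cancel]
    have : (r + 1) * (r + 1) = r * (r + 1 + 1) + 1 := by ring
    omega
  rw [hpn, h1, he, mul_assoc] at hcard
  have h2 : C.index = e * (q + 1) := Nat.eq_of_mul_eq_mul_left hC0 hcard
  exact Dvd.intro_left _ h2.symm

theorem m_eq_one_q8 {m : ℕ} (hp2 : p ≠ 2) (hm : m ≠ 0) (h : p ^ m + 1 ∣ 24) : m = 1 := by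
  have hpr : p.Prime := Fact.out
  have hle := Nat.le_of_dvd (by norm_num) h
  by_contra hm1
  have hm2 : 2 ≤ m := by omega
  have h1 : p ^ 2 ≤ p ^ m := Nat.pow_le_pow_right hpr.pos hm2
  have hp4 : p ≤ 4 := by nlinarith
  have hp3 : p = 3 := by
    have := hpr.two_le
    interval_cases p
    · exact absurd rfl hp2
    · rfl
    · exact absurd hpr (by norm_num)
  subst hp3
  have hm3 : m < 3 := by
    by_contra h3
    have : 3 ^ 3 ≤ 3 ^ m := Nat.pow_le_pow_right (by norm_num) (by omega)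
    omega
  have : m = 2 := by omega
  subst this
  norm_num at h

theorem m_eq_one_sl {m : ℕ} (hp2 : p ≠ 2) (hp3 : p ≠ 3) (hm : m ≠ 0) (h : p ^ m + 1 ∣ 120) :
    m = 1 := by
  have hpr : p.Prime := Fact.out
  have hle := Nat.le_of_dvd (by norm_num) h
  by_contra hm1
  have hm2 : 2 ≤ m := by omega
  have h1 : p ^ 2 ≤ p ^ m := Nat.pow_le_pow_right hpr.pos hm2
  have hp10 : p ≤ 10 := by nlinarith
  have hm3 : m < 3 := by
    by_contra h3
    have h4 : p ^ 3 ≤ p ^ m := Nat.pow_le_pow_right hpr.pos (by omega)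
    have h5 : 5 ≤ p := by
      have := hpr.two_le
      by_contra h6
      have : p = 4 := by omega
      rw [this] at hpr
      exact absurd hpr (by norm_num)
    nlinarith [Nat.pow_le_pow_left h5 3]
  have hm2' : m = 2 := by omega
  subst hm2'
  have := hpr.two_le
  interval_cases p <;> first | exact absurd rfl hp2 | exact absurd rfl hp3 | (norm_num at h)

/-- A non-abelian subgroup acting on a plane is irreducible. -/
theorem irred_of_plane (hreg : Reg H) {a x : H} (h : QPair a x)
    (hV : Module.finrank (ZMod p) V = 2) (W : Submodule (ZMod p) V)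
    (ha : ∀ v ∈ W, (a : V ≃ₗ[ZMod p] V) v ∈ W) (hx : ∀ v ∈ W, (x : V ≃ₗ[ZMod p] V) v ∈ W) :
    W = ⊥ ∨ W = ⊤ := by
  by_contra hne
  push Not at hne
  obtain ⟨hW1, hW2⟩ := hne
  haveI : Module.Finite (ZMod p) V := Module.Finite.of_finite
  have hfinW : Module.finrank (ZMod p) W = 1 := by
    have h1 : 1 ≤ Module.finrank (ZMod p) W := Submodule.one_le_finrank_iff.mpr hW1
    have h2 : Module.finrank (ZMod p) W < 2 := hV ▸ Submodule.finrank_lt hW2
    omega
  obtain ⟨w, hwW, hw0⟩ := Submodule.exists_mem_ne_zero_of_ne_bot hW1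
  have hw' : (⟨w, hwW⟩ : W) ≠ 0 := fun h => hw0 (congrArg Subtype.val h)
  have hspan := (finrank_eq_one_iff_of_nonzero' (⟨w, hwW⟩ : W) hw').mp hfinW
  obtain ⟨c, hc⟩ := hspan ⟨(a : V ≃ₗ[ZMod p] V) w, ha w hwW⟩
  obtain ⟨d, hd⟩ := hspan ⟨(x : V ≃ₗ[ZMod p] V) w, hx w hwW⟩
  have hc' : c • w = (a : V ≃ₗ[ZMod p] V) w := congrArg Subtype.val hc
  have hd' : d • w = (x : V ≃ₗ[ZMod p] V) w := congrArg Subtype.val hd
  exact h.ncomm (comm_of_common_eigenvector (repH_fpf hreg) hw0 hc'.symm hd'.symm)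

/-- A subgroup acting on a line is commutative. -/
theorem comm_of_line (hreg : Reg H) (U : Submodule (ZMod p) V)
    (hU : Module.finrank (ZMod p) U = 1) {g g' : H}
    (hg : ∀ v ∈ U, (g : V ≃ₗ[ZMod p] V) v ∈ U) (hg' : ∀ v ∈ U, (g' : V ≃ₗ[ZMod p] V) v ∈ U) :
    g * g' = g' * g := by
  have hU0 : U ≠ ⊥ := by
    rintro rfl
    simp at hU
  obtain ⟨w, hwW, hw0⟩ := Submodule.exists_mem_ne_zero_of_ne_bot hU0
  have hw' : (⟨w, hwW⟩ : U) ≠ 0 := fun h => hw0 (congrArg Subtype.val h)
  have hspan := (finrank_eq_one_iff_of_nonzero' (⟨w, hwW⟩ : U) hw').mp hU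
  obtain ⟨c, hc⟩ := hspan ⟨(g : V ≃ₗ[ZMod p] V) w, hg w hwW⟩
  obtain ⟨d, hd⟩ := hspan ⟨(g' : V ≃ₗ[ZMod p] V) w, hg' w hwW⟩
  have hc' : c • w = (g : V ≃ₗ[ZMod p] V) w := congrArg Subtype.val hc
  have hd' : d • w = (g' : V ≃ₗ[ZMod p] V) w := congrArg Subtype.val hd
  exact comm_of_common_eigenvector (repH_fpf hreg) hw0 hc'.symm hd'.symm

/-- The centraliser of a non-abelian normal subgroup acting on a line. -/
theorem centralizer_eq_of_line (hreg : Reg H) {A N : Subgroup H} (hAn : A.Normal)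
    (hAc : IsMulCommutative A)
    (hAmax : ∀ B : Subgroup H, B.Normal → IsMulCommutative B → A ≤ B → B = A)
    (hNn : N.Normal) (hNle : N ≤ centralizer (A : Set H)) {a x : H} (haN : a ∈ N) (hxN : x ∈ N)
    (U : Submodule (ZMod p) V) (hU : Module.finrank (ZMod p) U = 1)
    (hinv : ∀ g : H, Commute g a → Commute g x → ∀ v ∈ U, (g : V ≃ₗ[ZMod p] V) v ∈ U) :
    centralizer (N : Set H) = A := by
  apply hAmax
  · haveI := hNn
    infer_instance
  · refine ⟨⟨fun g g' => ?_⟩⟩
    apply Subtype.ext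
    have h1 : ∀ g : centralizer (N : Set H), ∀ v ∈ U, ((g : H) : V ≃ₗ[ZMod p] V) v ∈ U := by
      intro g
      apply hinv
      · exact (mem_centralizer_iff.mp g.2 a haN).symm
      · exact (mem_centralizer_iff.mp g.2 x hxN).symm
    exact comm_of_line hreg U hU (h1 g) (h1 g')
  · intro b hb
    rw [mem_centralizer_iff]
    intro n hn
    exact (mem_centralizer_iff.mp (hNle hn) b hb).symm

theorem two_ne_of_qpair [Nontrivial V] (hreg : Reg H) {a x : H} (h : QPair a x) : p ≠ 2 := by
  have hzz : (a ^ 2) ^ 2 = 1 := by rw [← pow_mul]; exact h.a4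
  have h2ne : (2 : ZMod p) ≠ 0 := two_ne_zero_of_involution hreg hzz h.a2
  intro h2
  apply h2ne
  subst h2
  rfl

theorem finrank_U_ne_zero [Nontrivial V] {U : Submodule (ZMod p) V}
    (hU : Module.finrank (ZMod p) V = Module.finrank (ZMod p) U + Module.finrank (ZMod p) U) :
    Module.finrank (ZMod p) U ≠ 0 := by
  haveI : Module.Finite (ZMod p) V := Module.Finite.of_finite
  have : 0 < Module.finrank (ZMod p) V := Module.finrank_pos
  omega

/-- The elements and the line, for a minimal non-abelian normal subgroup. -/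
theorem line_data (hreg : Reg H) {A N : Subgroup H} (hAn : A.Normal)
    (hAc : IsMulCommutative A)
    (hAmax : ∀ B : Subgroup H, B.Normal → IsMulCommutative B → A ≤ B → B = A)
    (hNn : N.Normal) (hNle : N ≤ centralizer (A : Set H)) (hNna : ¬ IsMulCommutative N)
    (hNmin : ∀ M : Subgroup H, M.Normal → M ≤ N → ¬ IsMulCommutative M → M = N) :
    ∃ (a x : H) (U : Submodule (ZMod p) V), a ∈ N ∧ x ∈ N ∧ QPair a x ∧
      Module.finrank (ZMod p) V = 2 ∧ Module.finrank (ZMod p) U = 1 ∧
      ∀ g : H, Commute g a → Commute g x → ∀ v ∈ U, (g : V ≃ₗ[ZMod p] V) v ∈ U := by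
  haveI := nontrivial_of_not_comm hNna
  haveI := hNn
  haveI := finite_H H
  by_cases hc : IsMulCommutative (⁅N, N⁆ : Subgroup H)
  · obtain ⟨e⟩ := quat_of_commutator_comm hreg hAn hAc hAmax hNn hNle hNna hNmin hc
    let ψ : QuaternionGroup 2 →* H := N.subtype.comp e.toMonoidHom
    have hψ : Function.Injective ψ := N.subtype_injective.comp e.injective
    have hq := qpair_q8.map ψ hψ
    obtain ⟨U, hU, hinv⟩ := half_data hreg hq
    refine ⟨_, _, U, (e _).2, (e _).2, hq, ?_, ?_, hinv⟩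
    all_goals
      let f : H →* MulAut N := MulAut.conjNormal
      have hker : ∀ g ∈ f.ker, ∀ y ∈ N, Commute g y := by
        intro g hg y hy
        have h1 : f g = 1 := hg
        have h2 := MulAut.conjNormal_apply (H := N) g ⟨y, hy⟩
        change (((f g) ⟨y, hy⟩ : N) : H) = _ at h2
        rw [h1] at h2
        have h3 : y = g * y * g⁻¹ := h2
        rw [eq_mul_inv_iff_mul_eq] at h3
        exact h3.symm
      have hidx : f.ker.index ∣ 24 := by
        rw [Subgroup.index_ker]
        refine (Subgroup.card_subgroup_dvd_card f.range).trans ?_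
        rw [Nat.card_congr (MulAut.congr e).symm.toEquiv]
        exact card_mulAut_quaternion_dvd
      have hb := index_bound hreg hU f.ker (fun g hg v hv =>
        hinv g (hker g hg _ (e _).2) (hker g hg _ (e _).2) v hv)
      have hm1 := m_eq_one_q8 (two_ne_of_qpair hreg hq) (finrank_U_ne_zero hU) (hb.trans hidx)
    · rw [hU, hm1]
    · exact hm1
  · have h1 : ⁅N, N⁆ = N := hNmin _ inferInstance (Subgroup.commutator_le_left N N) hc
    have hNb : N ≠ ⊥ := by
      rintro rfl
      apply hNna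
      infer_instance
    have hperf : commutator N = ⊤ := by
      apply Subgroup.map_injective N.subtype_injective
      rw [map_subtype_commutator, h1, ← MonoidHom.range_eq_map, Subgroup.range_subtype]
    obtain ⟨e⟩ := perfect_of_reg hreg N h1 hNb
    let ψ : SL25 →* H := N.subtype.comp e.symm.toMonoidHom
    have hψ : Function.Injective ψ := N.subtype_injective.comp e.symm.injective
    have hq := qpair_sl.map ψ hψ
    obtain ⟨U, hU, hinv⟩ := half_data hreg hq
    have hzz : ((ψ slA) ^ 2) ^ 2 = 1 := by rw [← pow_mul]; exact hq.a4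
    refine linear_ctx (F := ZMod p) (repH H) (repH_fpf hreg) hzz hq.a2 ?_
    intro E V' _ _ _ _ _ _ _ ρ C
    obtain ⟨hT5, -⟩ := typ5_of_perfect C N hNb hperf
    have hcardN := C.card5 hT5
    obtain ⟨π, hs, hk⟩ := hT5
    obtain ⟨-, T, hTL, hcent, -, -, -⟩ := typ5_struct C hs hk
    have hp3 : p ≠ 3 := by
      rintro rfl
      obtain ⟨y, hy⟩ := exists_prime_orderOf_dvd_card' (G := N) 3 (by rw [hcardN]; norm_num)
      have hy3 : (y : H) ^ 3 = 1 := by
        have := pow_orderOf_eq_one y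
        rw [hy] at this
        simpa using congrArg Subtype.val this
      have := C.hpow _ hy3
      have h3 : y = 1 := Subtype.ext this
      rw [h3, orderOf_one] at hy
      omega
    have hidx : T.ker.index ∣ 120 := by
      rw [Subgroup.index_ker]
      refine (Subgroup.card_subgroup_dvd_card T.range).trans ?_
      rw [Nat.card_perm]
      simp [Nat.factorial]
    have hker : ∀ g ∈ T.ker, ∀ y ∈ N, Commute g y := by
      intro g hg y hy
      have := hcent g hg y hy
      exact mul_inv_eq_iff_eq_mul.mp this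
    have hb := index_bound hreg hU T.ker (fun g hg v hv =>
      hinv g (hker g hg _ (e.symm _).2) (hker g hg _ (e.symm _).2) v hv)
    have hm1 := m_eq_one_sl (two_ne_of_qpair hreg hq) hp3 (finrank_U_ne_zero hU) (hb.trans hidx)
    exact ⟨_, _, U, (e.symm _).2, (e.symm _).2, hq, by rw [hU, hm1], hm1, hinv⟩

end Cfsg.Agent.Lib.Zassen.RegDim
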